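import Mathlib
import Cfsg.Agent.H176.NFStmt
import Cfsg.Agent.H518.DghpFix
import Cfsg.Agent.H518.DghpPSU
import Cfsg.Agent.LieClassical.OrthForms

/-!
# S5773: fixed spaces of elements of prime order in isometry groups (helper119)

Generic pieces for the classical rows: the fixed space of an isometry of order `r` is nondegenerate, so it is anisotropic
when its dimension is at most one and has Witt index at most one when its dimension is at most three.
`polQuad`: the `Pol` of a nondegenerate quadratic form over a finite field (any characteristic).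
-/

set_option autoImplicit false

namespace Cfsg.Agent.H119.NFFix

open Module Cfsg.Agent.H176.NF Cfsg.Agent.H518.DghpFix

section

variable {F : Type} [Field F] {V : Type} [AddCommGroup V] [Module F V]

theorem Pol.zero_right (P : Pol F V) (u : V) : P.β u 0 = 0 := by
  have := P.smul_right 0 u 0
  simpa using this

theorem Pol.sum_right (P : Pol F V) {ι : Type*} (s : Finset ι) (u : V) (w : ι → V) :
    P.β u (∑ i ∈ s, w i) = ∑ i ∈ s, P.β u (w i) := by
  classical
  induction s using Finset.induction_on with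
  | empty => simp [Pol.zero_right]
  | insert a s ha ih => rw [Finset.sum_insert ha, Finset.sum_insert ha, P.add_right, ih]

/-- The fixed space of an isometry of order `r` (prime to the characteristic) is nondegenerate. -/
theorem fix_nondeg (P : Pol F V) {f : V →ₗ[F] V} (hβ : ∀ u v, P.β (f u) (f v) = P.β u v) {r : ℕ} (hf : f ^ r = 1)
    (hr : (r : F) ≠ 0) {v : V} (hv : f v = v) (h : ∀ w, f w = w → P.β v w = 0) : v = 0 := by
  refine P.nondeg v fun w => ?_
  have hvi : ∀ i : ℕ, (f ^ i) v = v := by
    intro i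
    induction i with
    | zero => simp
    | succ i ih => rw [pow_succ, Module.End.mul_apply, hv, ih]
  have hβi : ∀ (i : ℕ) (u w : V), P.β ((f ^ i) u) ((f ^ i) w) = P.β u w := by
    intro i
    induction i with
    | zero => intro u w; simp
    | succ i ih => intro u w; rw [pow_succ, Module.End.mul_apply, Module.End.mul_apply, ih, hβ]
  have h1 : f (∑ i ∈ Finset.range r, (f ^ i) w) = ∑ i ∈ Finset.range r, (f ^ i) w := by
    rw [map_sum]
    have h2 : ∀ i : ℕ, f ((f ^ i) w) = (f ^ (i + 1)) w := fun i => by rw [pow_succ', Module.End.mul_apply]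
    rw [Finset.sum_congr rfl fun i _ => h2 i]
    have h3 := Finset.sum_range_succ' (fun i => (f ^ i) w) r
    rw [Finset.sum_range_succ, hf, pow_zero] at h3
    exact (add_right_cancel h3).symm
  have h2 := h _ h1
  rw [Pol.sum_right] at h2
  have h3 : ∀ i ∈ Finset.range r, P.β v ((f ^ i) w) = P.β v w := fun i _ => by
    have := hβi i v w
    rwa [hvi] at this
  rw [Finset.sum_congr rfl h3, Finset.sum_const, Finset.card_range, nsmul_eq_mul] at h2
  exact (mul_eq_zero.1 h2).resolve_left hr

/-- Dimension at most one: anisotropic. -/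
theorem aniso_of_le_one [FiniteDimensional F V] (P : Pol F V) {f : V →ₗ[F] V}
    (hβ : ∀ u v, P.β (f u) (f v) = P.β u v) {r : ℕ}
    (hf : f ^ r = 1) (hr : (r : F) ≠ 0) (hd : finrank F (fixS f) ≤ 1) {v : V} (hv : f v = v) (hκ : P.κ v = 0) :
    v = 0 := by
  by_contra hv0
  refine hv0 (fix_nondeg P hβ hf hr hv fun w hw => ?_)
  obtain ⟨x, hx⟩ := finrank_le_one_iff.1 hd
  obtain ⟨a, ha⟩ := hx ⟨v, hv⟩
  obtain ⟨b, hb⟩ := hx ⟨w, hw⟩
  have ha' : a • (x : V) = v := congrArg Subtype.val ha
  have hb' : b • (x : V) = w := congrArg Subtype.val hb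
  have ha0 : a ≠ 0 := by
    rintro rfl
    rw [zero_smul] at ha'
    exact hv0 ha'.symm
  have h1 : w = (b * a⁻¹) • v := by
    rw [← ha', ← hb', smul_smul, mul_assoc, inv_mul_cancel₀ ha0, mul_one]
  rw [h1, P.smul_right, P.κ_zero v hκ, mul_zero]

/-- Dimension at most three: Witt index at most one. -/
theorem witt_of_le_three [FiniteDimensional F V] (P : Pol F V) {f : V →ₗ[F] V}
    (hβ : ∀ u v, P.β (f u) (f v) = P.β u v) {r : ℕ}
    (hf : f ^ r = 1) (hr : (r : F) ≠ 0) (hd : finrank F (fixS f) ≤ 3) {u v : V} (hu : f u = u) (hv : f v = v)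
    (hκu : P.κ u = 0) (hκv : P.κ v = 0) (huv : P.β u v = 0) : ∃ a b : F, (a ≠ 0 ∨ b ≠ 0) ∧ a • u + b • v = 0 := by
  by_contra hcon
  have hli : ∀ a b : F, a • u + b • v = 0 → a = 0 ∧ b = 0 := by
    intro a b hab
    by_contra h
    exact hcon ⟨a, b, by tauto, hab⟩
  have hu0 : u ≠ 0 := by
    rintro rfl
    have := hli 1 0 (by simp)
    exact one_ne_zero this.1
  have huu := P.κ_zero u hκu
  have hvv := P.κ_zero v hκv
  have hvu := P.refl u v huv
  obtain ⟨w, hw, hw0⟩ : ∃ w, f w = w ∧ P.β u w ≠ 0 := by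
    by_contra h
    exact hu0 (fix_nondeg P hβ hf hr hu fun w hw => by
      by_contra h'
      exact h ⟨w, hw, h'⟩)
  have hind : LinearIndependent F ![u, v, w] := by
    rw [Fintype.linearIndependent_iff]
    intro g hg
    rw [Fin.sum_univ_three] at hg
    simp only [Matrix.cons_val_zero, Matrix.cons_val_one, Matrix.cons_val] at hg
    have h1 : P.β u (g 0 • u + g 1 • v + g 2 • w) = 0 := by rw [hg, Pol.zero_right]
    rw [P.add_right, P.add_right, P.smul_right, P.smul_right, P.smul_right, huu, huv, mul_zero, mul_zero, zero_add,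
      zero_add] at h1
    have h2 : g 2 = 0 := P.σ.injective (by rw [map_zero]; exact (mul_eq_zero.1 h1).resolve_right hw0)
    rw [h2, zero_smul, add_zero] at hg
    have h3 := hli _ _ hg
    intro i
    fin_cases i
    · exact h3.1
    · exact h3.2
    · exact h2
  have hspan : Submodule.span F (Set.range ![u, v, w]) = fixS f := by
    refine Submodule.eq_of_le_of_finrank_le ?_ ?_
    · rw [Submodule.span_le]
      rintro _ ⟨i, rfl⟩
      fin_cases i
      · exact hu
      · exact hv
      · exact hw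
    · rw [finrank_span_eq_card hind]
      simpa using hd
  -- `z = β(v, w) u - β(u, w) v`
  have hz : P.β v w • u + (-P.β u w) • v = 0 := by
    refine fix_nondeg P hβ hf hr (by rw [map_add, map_smul, map_smul, hu, hv]) fun y hy => ?_
    have hy' : y ∈ Submodule.span F (Set.range ![u, v, w]) := by rw [hspan]; exact hy
    rw [P.add_left, P.smul_left, P.smul_left]
    induction hy' using Submodule.span_induction with
    | mem y hy' =>
      obtain ⟨i, rfl⟩ := hy'
      fin_cases i
      · change P.β v w * P.β u u + -P.β u w * P.β v u = 0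
        rw [huu, hvu]; ring
      · change P.β v w * P.β u v + -P.β u w * P.β v v = 0
        rw [huv, hvv]; ring
      · change P.β v w * P.β u w + -P.β u w * P.β v w = 0
        ring
    | zero => rw [Pol.zero_right, Pol.zero_right]; ring
    | add x y hx' hy' ihx ihy =>
      have hx1 : f x = x := by
        have : x ∈ fixS f := by rw [← hspan]; exact hx'
        exact this
      have hy1 : f y = y := by
        have : y ∈ fixS f := by rw [← hspan]; exact hy'
        exact this
      rw [P.add_right, P.add_right]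
      linear_combination ihx hx1 + ihy hy1
    | smul a x hx' ihx =>
      have hx1 : f x = x := by
        have : x ∈ fixS f := by rw [← hspan]; exact hx'
        exact this
      rw [P.smul_right, P.smul_right]
      linear_combination P.σ a * ihx hx1
  have := hli _ _ hz
  exact hw0 (neg_eq_zero.1 this.2)

/-- The dimension of the fixed space. -/
theorem finrank_fixS [Fintype F] [FiniteDimensional F V] {f : V →ₗ[F] V} {r e d : ℕ} (hr : r.Prime)
    (hrF : ¬ r ∣ Fintype.card F) (hf : f ^ r = 1) (hf1 : f ≠ 1) (he : orderOf ((Fintype.card F : ℕ) : ZMod r) = e)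
    (hd : finrank F V = d) (h2 : d < 2 * e) : finrank F (fixS f) = d - e ∧ e ≤ d := by
  have hx' : f ^ r ^ 1 = 1 := by rw [pow_one, hf]
  have htop : finrank F (⊤ : Submodule F V) = d := by rw [finrank_top, hd]
  have hcx : finrank F (fixS f) < d := by
    rw [← hd]
    refine lt_of_le_of_ne (Submodule.finrank_le _) fun h => hf1 ?_
    exact fixS_eq_top_iff.1 (Submodule.eq_top_of_finrank_eq h)
  have h1 := finrank_fix hr hrF hx' ⊤ (fun _ _ => trivial)
  rw [top_inf_eq, htop, he] at h1
  obtain ⟨m, hm⟩ := h1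
  have hm0 : m ≠ 0 := by
    rintro rfl
    omega
  have hm1 : m < 2 := by
    by_contra hcon
    have : 2 * e ≤ e * m := by
      rw [mul_comm]
      exact Nat.mul_le_mul_left e (by omega)
    omega
  have : m = 1 := by omega
  subst this
  omega

/-- The `Pol` of a nondegenerate quadratic form over a finite field. -/
noncomputable def polQuad [Finite F] (Q : QuadraticForm F V) (hQ : ∀ u, (∀ v, QuadraticMap.polar Q u v = 0) → u = 0) :
    Pol F V where
  β u v := QuadraticMap.polar Q u v
  κ := Q
  σ := RingHom.id F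
  N c := c * c
  add_left u v w := QuadraticMap.polar_add_left Q u v w
  smul_left c u v := QuadraticMap.polar_smul_left Q c u v
  add_right u v w := QuadraticMap.polar_add_right Q u v w
  smul_right c u v := QuadraticMap.polar_smul_right Q c u v
  refl u v h := by rw [QuadraticMap.polar_comm]; exact h
  nondeg := hQ
  κ_add u v h := by
    have h1 := QuadraticMap.map_add Q u v
    rw [h1, h, add_zero]
  κ_smul c u := by
    rw [QuadraticMap.map_smul]
    rfl
  N_zero c h := by simpa using h
  κ_zero u h := by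
    rw [QuadraticMap.polar_self, h, smul_zero]
  κ_iso u v hu hv huv := by
    by_cases h2 : (2 : F) = 0
    · have hc : CharP F 2 := CharTwo.of_one_ne_zero_of_two_eq_zero one_ne_zero h2
      have hsq : ∀ c : F, ∃ a : F, a ^ 2 = c := fun c => by
        have : Fintype F := Fintype.ofFinite F
        exact (frobeniusEquiv F 2).surjective c
      have hmap : ∀ a b : F, Q (a • u + b • v) = a ^ 2 * Q u + b ^ 2 * Q v := fun a b => by
        rw [QuadraticMap.map_add Q, QuadraticMap.map_smul, QuadraticMap.map_smul, QuadraticMap.polar_smul_left,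
          QuadraticMap.polar_smul_right, huv, smul_zero, smul_zero, add_zero, smul_eq_mul, smul_eq_mul, sq, sq]
      obtain ⟨a, ha⟩ := hsq (Q v)
      obtain ⟨b, hb⟩ := hsq (Q u)
      by_cases hQ0 : Q v = 0
      · exact ⟨0, 1, Or.inr one_ne_zero, by rw [hmap, hQ0]; ring⟩
      · refine ⟨a, b, Or.inl ?_, ?_⟩
        · rintro rfl
          apply hQ0
          rw [← ha]; ring
        · rw [hmap, ha, hb]
          have : Q v * Q u + Q u * Q v = 2 * (Q u * Q v) := by ring
          rw [this, h2, zero_mul]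
    · refine ⟨1, 0, Or.inl one_ne_zero, ?_⟩
      rw [one_smul, zero_smul, add_zero]
      rw [QuadraticMap.polar_self, nsmul_eq_mul, Nat.cast_two] at hu
      exact (mul_eq_zero.1 hu).resolve_left h2

end

section

open Cfsg.Agent.H518.DghpMat Cfsg.Agent.H518.DghpSep

variable {ι : Type} [Fintype ι] [DecidableEq ι] {F : Type} [Field F] [Fintype F]

/-- The fixed space of an element of order `r`, in the form needed for `AnisoForm`. -/
theorem aniso_mat (P : Pol F (ι → F)) {G : Type} [Group G] (φ : G →* Matrix ι ι F) (hφ : Function.Injective φ)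
    (hβ : ∀ (g : G) (u v : ι → F), P.β ((φ g).mulVec u) ((φ g).mulVec v) = P.β u v) {r e : ℕ} (hr : r.Prime)
    (hrF : ¬ r ∣ Fintype.card F) (he : orderOf ((Fintype.card F : ℕ) : ZMod r) = e) (h2 : Fintype.card ι < 2 * e)
    (hd : Fintype.card ι - e ≤ 1) (x : G) (hx : orderOf x = r) (v : ι → F) (hv : (φ x).mulVec v = v)
    (hκ : P.κ v = 0) : v = 0 := by
  have hf : (matRep φ x) ^ r = 1 := pow_eq_one_of_orderOf (matRep φ) hx
  have hf1 : matRep φ x ≠ 1 := ne_one_of_orderOf (matRep φ) (matRep_injective hφ) hr hx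
  have h3 := finrank_fixS hr hrF hf hf1 he (finrank_pi_fin (ι := ι) (F := F)) h2
  exact aniso_of_le_one P (f := matRep φ x) (hβ x) hf (cast_ne_zero_of_not_dvd hr hrF) (by omega) hv hκ

/-- The fixed space of an element of order `r`, in the form needed for `WittOneForm`. -/
theorem witt_mat (P : Pol F (ι → F)) {G : Type} [Group G] (φ : G →* Matrix ι ι F) (hφ : Function.Injective φ)
    (hβ : ∀ (g : G) (u v : ι → F), P.β ((φ g).mulVec u) ((φ g).mulVec v) = P.β u v) {r e : ℕ} (hr : r.Prime)
    (hrF : ¬ r ∣ Fintype.card F) (he : orderOf ((Fintype.card F : ℕ) : ZMod r) = e) (h2 : Fintype.card ι < 2 * e)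
    (hd : Fintype.card ι - e ≤ 3) (x : G) (hx : orderOf x = r) (u v : ι → F) (hu : (φ x).mulVec u = u)
    (hv : (φ x).mulVec v = v) (hκu : P.κ u = 0) (hκv : P.κ v = 0) (huv : P.β u v = 0) :
    ∃ a b : F, (a ≠ 0 ∨ b ≠ 0) ∧ a • u + b • v = 0 := by
  have hf : (matRep φ x) ^ r = 1 := pow_eq_one_of_orderOf (matRep φ) hx
  have hf1 : matRep φ x ≠ 1 := ne_one_of_orderOf (matRep φ) (matRep_injective hφ) hr hx
  have h3 := finrank_fixS hr hrF hf hf1 he (finrank_pi_fin (ι := ι) (F := F)) h2
  exact witt_of_le_three P (f := matRep φ x) (hβ x) hf (cast_ne_zero_of_not_dvd hr hrF) (by omega) hu hv hκu hκv huv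

/-- The two bounds for an isometry group, `p` odd. -/
theorem bd_aniso (hB : BdOfUnip) (hA : AnisoForm) (P : Pol F (ι → F)) {G : Type} [Group G] [Finite G]
    (φ : G →* Matrix ι ι F) (hφ : Function.Injective φ)
    (hβ : ∀ (g : G) (u v : ι → F), P.β ((φ g).mulVec u) ((φ g).mulVec v) = P.β u v)
    (hκ : ∀ (g : G) (u : ι → F), P.κ ((φ g).mulVec u) = P.κ u) {r p e : ℕ} (hr : r.Prime) (hp : p.Prime)
    (hrp : r ≠ p) [CharP F p]
    (hrF : ¬ r ∣ Fintype.card F) (he : orderOf ((Fintype.card F : ℕ) : ZMod r) = e) (h2 : Fintype.card ι < 2 * e)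
    (hd : Fintype.card ι - e ≤ 1) : Bd G r p (1 / (p - 1) + e.factorization p) := by
  refine hB G F ι φ hφ r p e _ hr hp hrp hrF he h2 fun x hx U hU hxU => ?_
  have h3 := hA G F ι φ hφ P hβ hκ r p e hr hp hrp inferInstance he h2 x hx
    (fun v hv hv' => aniso_mat P φ hφ hβ hr hrF he h2 hd x hx v hv hv') U hU hxU
  have := Fact.mk hp
  obtain ⟨k, hk⟩ := (IsPGroup.iff_card).1 hU
  rw [hk] at h3
  rw [hk, hp.factorization_pow, Finsupp.single_eq_same]
  rcases Nat.eq_zero_or_pos k with h | h
  · rw [h]
    exact Nat.zero_le _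
  · have h4 : p ≤ 2 := (Nat.le_self_pow h.ne' p).trans h3
    obtain rfl : p = 2 := le_antisymm h4 hp.two_le
    have h5 : k < 2 := by
      by_contra hcon
      have := Nat.pow_le_pow_right (n := 2) two_pos (show 2 ≤ k by omega)
      omega
    show k ≤ 1
    omega

theorem bd_witt (hB : BdOfUnip) (hW : WittOneForm) (P : Pol F (ι → F)) {G : Type} [Group G] [Finite G]
    (φ : G →* Matrix ι ι F) (hφ : Function.Injective φ)
    (hβ : ∀ (g : G) (u v : ι → F), P.β ((φ g).mulVec u) ((φ g).mulVec v) = P.β u v)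
    (hκ : ∀ (g : G) (u : ι → F), P.κ ((φ g).mulVec u) = P.κ u) {r p f e : ℕ} (hr : r.Prime) (hp : p.Prime)
    (hrp : r ≠ p) [CharP F p] (hF : Fintype.card F = p ^ f)
    (hrF : ¬ r ∣ Fintype.card F) (he : orderOf ((Fintype.card F : ℕ) : ZMod r) = e) (h2 : Fintype.card ι < 2 * e)
    (hd : Fintype.card ι - e ≤ 3) :
    Bd G r p (f * (Fintype.card ι - 1) + 1 / (p - 1) + e.factorization p) := by
  refine hB G F ι φ hφ r p e _ hr hp hrp hrF he h2 fun x hx U hU hxU => ?_
  have h3 := hW G F ι φ hφ P hβ hκ r p e hr hp hrp inferInstance he h2 x hx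
    (fun u v hu hv hκu hκv huv => witt_mat P φ hφ hβ hr hrF he h2 hd x hx u v hu hv hκu hκv huv) U hU hxU
  have := Fact.mk hp
  obtain ⟨k, hk⟩ := (IsPGroup.iff_card).1 hU
  rw [hk, hF, ← pow_mul] at h3
  rw [hk, hp.factorization_pow, Finsupp.single_eq_same]
  by_cases hp2 : p = 2
  · subst hp2
    rw [← pow_succ'] at h3
    have h4 := (Nat.pow_le_pow_iff_right (by norm_num)).1 h3
    show k ≤ f * (Fintype.card ι - 1) + 1
    omega
  · have hp3 : 2 < p := lt_of_le_of_ne hp.two_le (Ne.symm hp2)
    have h4 : p ^ k < p ^ (f * (Fintype.card ι - 1) + 1) := by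
      rw [pow_succ']
      exact lt_of_le_of_lt h3 (Nat.mul_lt_mul_of_pos_right hp3 (pow_pos hp.pos _))
    have h5 := (Nat.pow_lt_pow_iff_right hp.one_lt).1 h4
    have h6 : 0 ≤ 1 / (p - 1) := Nat.zero_le _
    exact (Nat.lt_succ_iff.1 h5).trans (Nat.le_add_right _ _)

end

end Cfsg.Agent.H119.NFFix
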