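import Mathlib
import Cfsg.Agent.H119.NFFix
import Cfsg.Agent.H518.DghpOrth
import Cfsg.Agent.S0292
import Cfsg.Agent.S0295
import Cfsg.Agent.S2604
import Cfsg.Agent.LieClassical.PomegaCard

/-!
# S5773: the row `PΩ_{2m+1}(q)`, `q` odd, `m ≥ 3` (helper119)
-/

set_option autoImplicit false

namespace Cfsg.Agent.H119.NFOdd

open Module Cfsg.Agent.H176.NF Cfsg.Agent.H518.Dghp Cfsg.Agent.H518.DghpMat Cfsg.Agent.H518.DghpSep
  Cfsg.Agent.H518.DghpPrim Cfsg.Agent.H119.NFFix

/-- A primitive prime divisor of `q ^ e - 1` (relative to the prime `p`), `q = p ^ f`. -/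
theorem exists_ppd {p f e : ℕ} (hp : p.Prime) (hp2 : p ≠ 2) (hf : 1 ≤ f) (he : 3 ≤ e) :
    ∃ r : ℕ, r.Prime ∧ e * f < r ∧ orderOf ((p ^ f : ℕ) : ZMod r) = e ∧ r ≠ p := by
  have h3 : 3 ≤ e * f := le_trans he (Nat.le_mul_of_pos_right e hf)
  obtain ⟨r, hr, ho⟩ := Lib.Zsigmondy.exists_prime_orderOf (a := p) (n := e * f) (by have := hp.two_le; omega) (by omega)
    (fun h => by omega) (fun h => by omega)
  have hlt := lt_prime hr ho (by omega)
  refine ⟨r, hr, hlt, ?_, ?_⟩
  · rw [Nat.cast_pow, orderOf_pow' _ (by omega), ho, Nat.gcd_mul_left_left, Nat.mul_div_cancel _ hf]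
  · rintro rfl
    exact not_dvd_of_orderOf hr ho (by omega) dvd_rfl

theorem fact_le {p n : ℕ} (hp : p.Prime) (hp2 : p ≠ 2) (hn : n ≠ 0) : (2 * n).factorization p ≤ n / 3 := by
  have hp3 : 3 ≤ p := by
    have := hp.two_le
    omega
  have h1 : p ^ (2 * n).factorization p ∣ n := by
    have h2 : p ^ (2 * n).factorization p ∣ 2 * n := Nat.ordProj_dvd _ _
    refine (Nat.Coprime.dvd_of_dvd_mul_left ?_ h2)
    exact Nat.Coprime.pow_left _ ((Nat.coprime_primes hp Nat.prime_two).2 hp2)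
  have h2 := Nat.le_of_dvd (Nat.pos_of_ne_zero hn) h1
  generalize (2 * n).factorization p = k at h2 ⊢
  have h3 : 3 ^ k ≤ n := (Nat.pow_le_pow_left hp3 k).trans h2
  have h4 : 3 * k ≤ 3 ^ k := by
    clear h1 h2 h3
    induction k with
    | zero => simp
    | succ k ih =>
      rcases Nat.eq_zero_or_pos k with rfl | hk
      · norm_num
      · rw [pow_succ]
        omega
  omega

/-- The numerical form is enough for simple groups. -/
theorem nf_of_nf0 {T : Type*} [Group T] [Finite T] [IsSimpleGroup T] (h : NF0 T) : NF T := by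
  refine h.nf ?_
  rw [← MonoidHom.ker_eq_bot_iff]
  rcases (inferInstance : (MulAut.conj : T →* MulAut T).ker.Normal).eq_bot_or_eq_top with h1 | h1
  · exact h1
  · exfalso
    have h2 : ∀ a b : T, a * b = b * a := fun a b => by
      have h3 : a ∈ (MulAut.conj : T →* MulAut T).ker := by rw [h1]; trivial
      have h4 := congrArg (fun f : MulAut T => f b) (MonoidHom.mem_ker.1 h3)
      change a * b * a⁻¹ = b at h4
      rw [mul_inv_eq_iff_eq_mul] at h4
      exact h4
    have h3 : Group.IsSolvable (⊤ : Subgroup T) := Group.isSolvable_of_comm fun a b => Subtype.ext (h2 a b)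
    refine h ⊤ ⊤ h3 h3 ?_
    rw [Subgroup.card_top, mul_assoc]
    exact dvd_mul_right _ _

variable {F : Type} [Field F] [Fintype F]

theorem out_card {p f m : ℕ} (hp : p.Prime) (hp2 : p ≠ 2) (hf : 1 ≤ f) (hF : Fintype.card F = p ^ f) (hm : 3 ≤ m) :
    outN (Cfsg.POmega F (Cfsg.quadFormOdd m F)) = 2 * f := by
  have := Fact.mk hp
  have hfz : NeZero f := ⟨by omega⟩
  obtain ⟨e⟩ := S2604.result (F := F) (m := m) hf hF hp2 hm
  have hO : Nat.card (Cfsg.Out (Cfsg.POmega F (Cfsg.quadFormOdd m F))) = 2 * f := by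
    rw [Nat.card_congr e.toEquiv, Nat.card_congr Multiplicative.toAdd, Nat.card_prod, Nat.card_zmod, Nat.card_zmod]
  exact hO

theorem nf0 (hB : BdOfUnip) (hA : AnisoForm) (hW : WittOneForm) {m : ℕ} (hm : 3 ≤ m)
    (hodd : Odd (Fintype.card F)) : NF0 (Cfsg.POmega F (Cfsg.quadFormOdd m F)) := by
  obtain ⟨p, hpc⟩ := CharP.exists F
  obtain ⟨⟨f, hf⟩, hp, hF⟩ := FiniteField.card F p
  change Fintype.card F = p ^ f at hF
  have hp2 : p ≠ 2 := by
    rintro rfl
    rw [hF] at hodd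
    exact (Nat.not_even_iff_odd.2 hodd) ((even_two).pow_of_ne_zero (Nat.pos_iff_ne_zero.1 hf))
  have hf1 : 1 ≤ f := hf
  have hp3 : 3 ≤ p := by
    have := hp.two_le
    omega
  have h2 : (2 : F) ≠ 0 := Cfsg.Agent.LieClassical.PomegaCard.odd_card_iff.1 hodd
  obtain ⟨q, hq⟩ : ∃ q, Fintype.card F = q := ⟨_, rfl⟩
  have hqp : q = p ^ f := by rw [← hq, hF]
  have hcard := Cfsg.Agent.S0292.result hq (hq ▸ hodd) m hm
  have hq1 : 1 < q := hq ▸ Fintype.one_lt_card
  obtain ⟨r, hr, hrn, her, hrp⟩ := exists_ppd (e := 2 * m) hp hp2 hf1 (by omega)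
  obtain ⟨s, hs, hsn, hes, hsp⟩ := exists_ppd (e := 2 * (m - 1)) hp hp2 hf1 (by omega)
  have hrn' : 2 * m < r := lt_of_le_of_lt (Nat.le_mul_of_pos_right _ hf1) hrn
  have hsn' : 2 * (m - 1) < s := lt_of_le_of_lt (Nat.le_mul_of_pos_right _ hf1) hsn
  rw [← hqp] at her hes
  have hdvd : ∀ j t : ℕ, t.Prime → t ≠ 2 → orderOf (q : ZMod t) = 2 * j → 1 ≤ j → j ≤ m →
      t ∣ Nat.card (Cfsg.POmega F (Cfsg.quadFormOdd m F)) := by
    intro j t ht ht2 hord hj hjm
    refine dvd_of_dvd_four_mul (g := 2) ht ht2 (by norm_num) ?_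
    rw [hcard]
    exact Dvd.dvd.mul_left ((dvd_pow_sub_one hq1.le hord).trans (dvd_prod_factor hj hjm)) _
  have hrF : ¬ r ∣ Fintype.card F := by rw [hq]; exact not_dvd_of_orderOf hr her (by omega)
  have hsF : ¬ s ∣ Fintype.card F := by rw [hq]; exact not_dvd_of_orderOf hs hes (by omega)
  have hrs : r ≠ s := by
    intro h
    rw [h, hes] at her
    omega
  -- separation
  have hdim : Fintype.card (Unit ⊕ (Fin m ⊕ Fin m)) = 2 * m + 1 := by simp; ring
  have hsep : Sep (Cfsg.Omega F (Cfsg.quadFormOdd m F)) r s := by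
    refine sep_linear (matRep (omHom (Cfsg.quadFormOdd m F))) (matRep_injective (omHom_injective _)) hr hs hrF hsF
      (e := 2 * m) (f := 2 * (m - 1)) (d := 2 * m + 1) (by rw [hq, her]) (by rw [hq, hes])
      (by rw [finrank_pi_fin, hdim]) (by omega) (by omega) ?_ ?_ ?_ ?_
    · intro h
      have h1 : 2 * (m - 1) ∣ 2 * m - 2 * (m - 1) := Nat.dvd_sub h dvd_rfl
      have h2 : 2 * m - 2 * (m - 1) = 2 := by omega
      rw [h2] at h1
      have := Nat.le_of_dvd two_pos h1
      omega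
    · intro h
      have h1 : s ∣ m := by
        rcases (Nat.Prime.dvd_mul hs).1 h with h' | h'
        · have := Nat.le_of_dvd two_pos h'
          omega
        · exact h'
      have := Nat.le_of_dvd (by omega) h1
      omega
    · intro h
      have := Nat.le_of_dvd (by omega) h
      omega
    · calc 2 * m + 1 < r * 2 := by omega
        _ ≤ r * (2 * (m - 1)) := Nat.mul_le_mul_left r (by omega)
  have hsepT : Sep (Cfsg.POmega F (Cfsg.quadFormOdd m F)) r s :=
    hsep.of_surjective (QuotientGroup.mk' _) (QuotientGroup.mk'_surjective _) (by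
      rw [QuotientGroup.ker_mk']
      exact Group.isSolvable_of_comm fun a b => Subtype.ext ((Subgroup.mem_center_iff.1 b.2) a))
  -- the form
  let P : Pol F (Unit ⊕ (Fin m ⊕ Fin m) → F) := polQuad (LieClassical.OrthForms.oddForm m F)
    (LieClassical.OrthForms.nondeg_oddForm m F h2)
  have hκ : ∀ (g : Cfsg.Omega F (Cfsg.quadFormOdd m F)) (u : Unit ⊕ (Fin m ⊕ Fin m) → F),
      P.κ ((omHom (Cfsg.quadFormOdd m F) g).mulVec u) = P.κ u := by
    intro g u
    change LieClassical.OrthForms.oddForm m F _ = LieClassical.OrthForms.oddForm m F u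
    rw [LieClassical.OrthForms.coe_oddForm]
    exact g.1.2 u 0
  have hβ : ∀ (g : Cfsg.Omega F (Cfsg.quadFormOdd m F)) (u v : Unit ⊕ (Fin m ⊕ Fin m) → F),
      P.β ((omHom (Cfsg.quadFormOdd m F) g).mulVec u) ((omHom (Cfsg.quadFormOdd m F) g).mulVec v) = P.β u v := by
    intro g u v
    change QuadraticMap.polar _ _ _ = QuadraticMap.polar _ _ _
    unfold QuadraticMap.polar
    rw [← Matrix.mulVec_add]
    have h1 := hκ g (u + v)
    have h2 := hκ g u
    have h3 := hκ g v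
    change LieClassical.OrthForms.oddForm m F _ = LieClassical.OrthForms.oddForm m F _ at h1 h2 h3
    rw [h1, h2, h3]
  have hbr := bd_aniso hB hA P (omHom (Cfsg.quadFormOdd m F)) (omHom_injective _) hβ hκ hr hp hrp hrF
    (e := 2 * m) (by rw [hq, her]) (by rw [hdim]; omega) (by rw [hdim]; omega)
  have hbs := bd_witt hB hW P (omHom (Cfsg.quadFormOdd m F)) (omHom_injective _) hβ hκ hs hp hsp hF hsF
    (e := 2 * (m - 1)) (by rw [hq, hes]) (by rw [hdim]; omega) (by rw [hdim]; omega)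
  have hzero : 1 / (p - 1) = 0 := Nat.div_eq_of_lt (by omega)
  rw [hzero, zero_add] at hbr
  rw [hzero, add_zero, hdim] at hbs
  have hout := out_card (m := m) hp hp2 hf1 hF hm
  have hZ : Group.IsSolvable (Subgroup.center (Cfsg.Omega F (Cfsg.quadFormOdd m F))) :=
    Group.isSolvable_of_comm fun a b => Subtype.ext ((Subgroup.mem_center_iff.1 b.2) a)
  refine nf0_pair (T := Cfsg.POmega F (Cfsg.quadFormOdd m F)) hr hs (hdvd m r hr (by omega) her (by omega) le_rfl)
    (hdvd (m - 1) s hs (by omega) hes (by omega) (by omega)) ?_ ?_ hsepT (hbr.quot _ hZ) (hbs.quot _ hZ) ?_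
  · rw [hout]
    intro h
    have h1 := Nat.le_of_dvd (by omega) h
    have h2 : 2 * f ≤ 2 * m * f := Nat.mul_le_mul_right f (by omega)
    omega
  · rw [hout]
    intro h
    have h1 := Nat.le_of_dvd (by omega) h
    have h2 : 2 * f ≤ 2 * (m - 1) * f := Nat.mul_le_mul_right f (by omega)
    omega
  · rw [hout]
    have h1 : f * m ^ 2 ≤ (Nat.card (Cfsg.POmega F (Cfsg.quadFormOdd m F))).factorization p := by
      rw [← hp.pow_dvd_iff_le_factorization Nat.card_pos.ne']
      have h2 : p ^ (f * m ^ 2) ∣ 2 * Nat.card (Cfsg.POmega F (Cfsg.quadFormOdd m F)) := by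
        rw [hcard, hqp, ← pow_mul]
        exact dvd_mul_right _ _
      exact Nat.Coprime.dvd_of_dvd_mul_left
        (Nat.Coprime.pow_left _ ((Nat.coprime_primes hp Nat.prime_two).2 hp2)) h2
    refine lt_of_lt_of_le ?_ h1
    have h2 := fact_le (n := m) hp hp2 (by omega)
    have h3 := fact_le (n := m - 1) hp hp2 (by omega)
    have h4 := fact_le (n := f) hp hp2 (by omega)
    obtain ⟨a, rfl⟩ : ∃ a, m = a + 3 := ⟨m - 3, by omega⟩
    obtain ⟨b, rfl⟩ : ∃ b, f = b + 1 := ⟨f - 1, by omega⟩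
    have h5 : (b + 1) * (a + 3) ^ 2 = (b + 1) * (2 * (a + 3) + 1 - 1) + (b + 1) * ((a + 3) * (a + 1)) := by
      rw [Nat.add_sub_cancel]
      ring
    have h6 : (b + 1) * ((a + 3) * (a + 1)) = (a + 3) + b + (b * a ^ 2 + 4 * a * b + 2 * b + a ^ 2 + 3 * a) := by ring
    omega

/-- **The row `PΩ_{2m+1}(q)`.** -/
theorem oodd (hB : BdOfUnip) (hA : AnisoForm) (hW : WittOneForm) (F : Type) [Field F] [Fintype F] (m : ℕ)
    (hm : 3 ≤ m) (hodd : Odd (Fintype.card F)) : NF (Cfsg.POmega F (Cfsg.quadFormOdd m F)) := by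
  have hs : IsSimpleGroup (Cfsg.POmega F (Cfsg.quadFormOdd m F)) := S0295.result hodd m hm
  exact nf_of_nf0 (nf0 hB hA hW hm hodd)

end Cfsg.Agent.H119.NFOdd
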