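import Cfsg.Agent.H119.NHQuad
import Cfsg.Agent.LieClassical.OmegaCenter

/-!
# Nilpotent Hall subgroups of the orthogonal groups, cross characteristic (helper119)
-/

set_option autoImplicit false
set_option linter.unusedSectionVars false
set_option linter.style.haveILetI false

namespace Cfsg.Agent.H119.NHF

open Module QuadraticMap
open LinearMap (BilinForm)
open Cfsg.Agent.LieClassical.OrthCore Cfsg.Agent.LieClassical.OrthForms
open Cfsg.Agent.H403.Classify Cfsg.Agent.H377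

universe u v w

variable {F : Type u} [Field F] [Finite F] {V : Type v} [AddCommGroup V] [Module F V]
  [FiniteDimensional F V] [Finite V]

section

variable {q : QuadraticForm F V} {hq : Nondeg q}

/-- Data of an atom. -/
theorem atom_data {p : ℕ} (hp : p.Prime) (hp2 : p ≠ 2) (hF : (p : F) ≠ 0) {W : Submodule F V}
    (hW : (qFS q hq).At p W) : ∃ (m : ℕ) (ε : ℤ), 1 ≤ m ∧ finrank F W = 2 * m ∧ (ε = 1 ∨ ε = -1) ∧
      HasSign (⇑(q.comp W.subtype)) m ε ∧ (p : ℤ) ∣ (Nat.card F : ℤ) ^ m - ε := by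
  obtain ⟨y, hyW, hyo, hyp, hfix⟩ := FS.exists_y hp hF hW
  have hySt := (qFS q hq).K_le_St W hyW
  have h1 : ∀ x ∈ W, y.1 x = x → x = 0 := by
    intro x hx hyx
    have : x ∈ (qFS q hq).perp W := by
      rw [← hfix]
      exact hyx
    exact (Submodule.disjoint_def.1 hW.1) x hx this
  have hyp1 : y ^ p = 1 := by rw [← hyo, pow_orderOf_eq_one]
  have hy1 : y ≠ 1 := by
    rintro rfl
    rw [orderOf_one] at hyo
    exact hp.one_lt.ne hyo
  have hy2 : y ^ 2 ≠ 1 := by
    intro h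
    have h3 : orderOf y ∣ 2 := orderOf_dvd_of_pow_eq_one h
    rw [hyo] at h3
    exact hp2 ((Nat.prime_dvd_prime_iff_eq hp Nat.prime_two).1 h3)
  have hfix2 : FS.fix (y ^ 2).1 = (qFS q hq).perp W := by
    refine hW.fix_eq hF (((qFS q hq).K W).pow_mem hyW 2) ?_ hy2
    refine pe_of_pow hp (n := 1) ?_
    rw [pow_one, ← pow_mul, mul_comm, pow_mul, hyp1, one_pow]
  have h2 : ∀ x ∈ W, y.1 (y.1 x) = x → x = 0 := by
    intro x hx hyx
    have : x ∈ (qFS q hq).perp W := by
      rw [← hfix2]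
      show (y ^ 2).1 x = x
      rw [pow_two]
      exact hyx
    exact (Submodule.disjoint_def.1 hW.1) x hx this
  obtain ⟨m, hm⟩ := even_of_fpf (qFS_symm q hq) hW.1 hySt h2
  have hm1 : 1 ≤ m := by
    by_contra hlt
    have h0 : m = 0 := by omega
    apply hW.ne_bot hp
    rw [← Submodule.finrank_eq_zero (R := F), hm, h0]
  obtain ⟨ε, hε, hs⟩ := exists_sign hm1 hm (q.comp W.subtype) (nondeg_sub hW.1)
  exact ⟨m, ε, hm1, hm, hε, hs, sign_cong hp hF hySt hyp1 h1 hm hs⟩

/-- **(U)** Atoms are isometric. -/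
theorem orth_unique {p : ℕ} (hp : p.Prime) (hp2 : p ≠ 2) (hF : (p : F) ≠ 0) {U U' : Submodule F V}
    (hU : (qFS q hq).At p U) (hU' : (qFS q hq).At p U') : Nonempty ((qFS q hq).Isom U U') := by
  obtain ⟨m, ε, hm, hmU, hε, hs, hc⟩ := atom_data hp hp2 hF hU
  obtain ⟨m', ε', hm', hmU', hε', hs', hc'⟩ := atom_data hp hp2 hF hU'
  have h1 := hU.finrank_eq hU'
  have h2 : m' = m := by omega
  subst h2
  have h3 : ε' = ε := by
    have h4 : (p : ℤ) ∣ ε - ε' := by
      have := dvd_sub hc' hc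
      have h5 : ((Nat.card F : ℤ) ^ m' - ε') - ((Nat.card F : ℤ) ^ m' - ε) = ε - ε' := by ring
      rwa [h5] at this
    have h6 : 3 ≤ p := by
      have := hp.two_le
      omega
    rcases hε with rfl | rfl <;> rcases hε' with rfl | rfl
    · rfl
    · exfalso
      have := Int.le_of_dvd (by norm_num) h4
      omega
    · exfalso
      rw [← dvd_neg] at h4
      have := Int.le_of_dvd (by norm_num) h4
      omega
    · rfl
  subst h3
  obtain ⟨e, he⟩ := iso_of_sign hm hmU hmU' (nondeg_sub hU.1) (nondeg_sub hU'.1) hε hs hs'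
  exact ⟨⟨e, fun x y => polar_of_eq (q := q.comp U.subtype) (q' := q.comp U'.subtype) e.toLinearMap he x y, he⟩⟩

/-- Embedding in an even-dimensional space. -/
theorem embed_even {U : Type w} [AddCommGroup U] [Module F U] [Finite U] {k n : ℕ} (hk : 1 ≤ k) (hkn : k < n)
    (hU : finrank F U = 2 * k) {qU : QuadraticForm F U} (hqU : Nondeg qU) {W : Type v} [AddCommGroup W]
    [Module F W] [Finite W] (hW : finrank F W = 2 * n) {qW : QuadraticForm F W} (hqW : Nondeg qW) :
    ∃ f : U →ₗ[F] W, ∀ x, qW (f x) = qU x := by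
  haveI : FiniteDimensional F U := Module.Finite.of_finite
  obtain ⟨ε, hε, hs⟩ := exists_sign hk hU qU hqU
  obtain ⟨δ, hδ, hsW⟩ := exists_sign (by omega) hW qW hqW
  have hεδ : ε * δ = 1 ∨ ε * δ = -1 := by
    rcases hε with rfl | rfl <;> rcases hδ with rfl | rfl <;> simp
  obtain ⟨-, C, -, hC, hCs, -, -⟩ := elt_one_pm (F := F) (n := n - k) (by omega) hεδ
  have h1 : HasSign (⇑(sumQ qU C)) n δ := by
    have h2 := hs.prod hCs
    have h3 : k + (n - k) = n := by omega
    have h4 : ε * (ε * δ) = δ := by rcases hε with rfl | rfl <;> ring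
    rw [h3, h4] at h2
    exact h2
  have h5 : finrank F (U × (Fin (2 * (n - k)) → F)) = 2 * n := by
    rw [Module.finrank_prod, hU, Module.finrank_fin_fun]
    omega
  obtain ⟨e, he⟩ := iso_of_sign (by omega) h5 hW (sumQ_nondeg hqU hC) hqW hδ h1 hsW
  refine ⟨e.toLinearMap.comp (LinearMap.inl F U _), fun x => ?_⟩
  show qW (e (x, 0)) = qU x
  rw [he, sumQ_apply, QuadraticMap.map_zero, add_zero]

/-- The form `a²` on `F`. -/
def sqF (F : Type u) [Field F] : QuadraticForm F F := QuadraticMap.sq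

theorem sqF_apply (a : F) : sqF F a = a * a := rfl

theorem sqF_nondeg (h2 : (2 : F) ≠ 0) : Nondeg (sqF F) := by
  intro x hx
  have h1 := hx 1
  rw [polar, sqF_apply, sqF_apply, sqF_apply] at h1
  have h3 : 2 * x = 0 := by linear_combination h1
  exact (mul_eq_zero.1 h3).resolve_left h2

theorem smul_hasSign {U : Type w} [AddCommGroup U] [Module F U] [Finite U] {qU : QuadraticForm F U} {k : ℕ} {ε : ℤ}
    (h : HasSign (⇑qU) k ε) {c : F} (hc : c ≠ 0) : HasSign (⇑(c • qU)) k ε := by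
  intro ψ hψ
  have h1 : gs ψ (⇑(c • qU)) = gs (AddChar.mulShift ψ c) (⇑qU) := by
    haveI : Fintype U := Fintype.ofFinite U
    rw [gs_eq, gs_eq]
    apply Finset.sum_congr rfl
    intro v _
    rw [AddChar.mulShift_apply]
    rfl
  rw [h1]
  apply h
  intro h2
  apply hψ
  ext a
  have h3 := congrArg (fun χ : AddChar F ℂ => χ (c⁻¹ * a)) h2
  simp only [AddChar.mulShift_apply, AddChar.one_apply, mul_inv_cancel_left₀ hc] at h3
  rw [h3, AddChar.one_apply]

theorem smul_nondeg {U : Type w} [AddCommGroup U] [Module F U] {qU : QuadraticForm F U}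
    (h : Nondeg qU) {c : F} (hc : c ≠ 0) : Nondeg (c • qU) := by
  intro x hx
  apply h
  intro y
  have h1 := hx y
  have h2 : polar (⇑(c • qU)) x y = c * polar (⇑qU) x y := by
    rw [polar, polar]
    show c * qU (x + y) - c * qU x - c * qU y = c * (qU (x + y) - qU x - qU y)
    ring
  rw [h2] at h1
  exact (mul_eq_zero.1 h1).resolve_left hc

/-- Embedding in an odd-dimensional space. -/
theorem embed_odd (h2 : (2 : F) ≠ 0) {U : Type w} [AddCommGroup U] [Module F U] [Finite U] {k n : ℕ} (hk : 1 ≤ k)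
    (hkn : k ≤ n) (hU : finrank F U = 2 * k) {qU : QuadraticForm F U} (hqU : Nondeg qU) {W : Type v}
    [AddCommGroup W] [Module F W] [Finite W] (hW : finrank F W = 2 * n + 1) {qW : QuadraticForm F W}
    (hqW : Nondeg qW) : ∃ f : U →ₗ[F] W, ∀ x, qW (f x) = qU x := by
  haveI : FiniteDimensional F U := Module.Finite.of_finite
  obtain ⟨ε, hε, hs⟩ := exists_sign hk hU qU hqU
  -- the even-dimensional space
  have hX : finrank F (U × (Fin (n - k) ⊕ Fin (n - k) → F)) = 2 * n := by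
    rw [Module.finrank_prod, hU, finrank_sumFun]
    omega
  have hXn : Nondeg (sumQ qU (plusForm (n - k) F)) := sumQ_nondeg hqU (nondeg_plusForm _ _)
  have hXs : HasSign (⇑(sumQ qU (plusForm (n - k) F))) n ε := by
    have h3 := hs.prod (hasSign_plusForm (F := F) (n - k))
    have h4 : k + (n - k) = n := by omega
    rw [h4, mul_one] at h3
    exact h3
  have hY : finrank F ((U × (Fin (n - k) ⊕ Fin (n - k) → F)) × F) = 2 * n + 1 := by
    rw [Module.finrank_prod, hX, Module.finrank_self]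
  obtain ⟨c₀, e₀, hc₀, he₀⟩ := exists_similar_odd hY (sumQ (sumQ qU (plusForm (n - k) F)) (sqF F))
    (sumQ_nondeg hXn (sqF_nondeg h2))
  obtain ⟨c, e, hc, he⟩ := exists_similar_odd hW qW hqW
  have hcc : c / c₀ ≠ 0 := div_ne_zero hc hc₀
  obtain ⟨g, hg⟩ := iso_of_sign (by omega) hX hX hXn (smul_nondeg hXn hcc) hε hXs (smul_hasSign hXs hcc)
  have hg' : ∀ x, (c / c₀) * (sumQ qU (plusForm (n - k) F)) (g x) = sumQ qU (plusForm (n - k) F) x := hg
  refine ⟨(e.toLinearMap.comp e₀.symm.toLinearMap).comp ((LinearMap.inl F _ F).comp (g.toLinearMap.comp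
    (LinearMap.inl F U _))), fun x => ?_⟩
  show qW (e (e₀.symm (g (x, 0), 0))) = qU x
  rw [he]
  have h5 : (sumQ (sumQ qU (plusForm (n - k) F)) (sqF F)) (g (x, 0), 0)
      = c₀ * oddForm n F (e₀.symm (g (x, 0), 0)) := by
    rw [← he₀, e₀.apply_symm_apply]
  have h6 : oddForm n F (e₀.symm (g (x, 0), 0)) = c₀⁻¹ * (sumQ qU (plusForm (n - k) F)) (g (x, 0)) := by
    rw [sumQ_apply, sqF_apply, mul_zero, add_zero] at h5
    rw [h5, inv_mul_cancel_left₀ hc₀]
  rw [h6, ← mul_assoc, ← div_eq_mul_inv, hg', sumQ_apply, QuadraticMap.map_zero, add_zero]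

/-- **(E)** Existence of copies of atoms. -/
theorem orth_embed {p : ℕ} (hp : p.Prime) (hp2 : p ≠ 2) (hF : (p : F) ≠ 0) {U W : Submodule F V}
    (hU : (qFS q hq).At p U) (hW : (qFS q hq).Nd W) (hlt : finrank F U < finrank F W) :
    ∃ U' ≤ W, (qFS q hq).Nd U' ∧ Nonempty ((qFS q hq).Isom U U') := by
  obtain ⟨k, ε, hk, hkU, hε, hs, -⟩ := atom_data hp hp2 hF hU
  have key : ∃ f : U →ₗ[F] W, ∀ x, (q.comp W.subtype) (f x) = (q.comp U.subtype) x := by
    rcases Nat.even_or_odd' (finrank F W) with ⟨n, hn | hn⟩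
    · exact embed_even hk (by omega) hkU (nondeg_sub hU.1) hn (nondeg_sub hW)
    · have h2 : (2 : F) ≠ 0 := by
        intro h2
        have hA : (qFS q hq).B.IsAlt := fun x => by
          show polar (⇑q) x x = 0
          rw [Cfsg.Agent.H377.polar_self', h2, zero_mul]
        obtain ⟨m, -, hm, -⟩ := FS.exists_basis hA hW
        omega
      exact embed_odd h2 hk (by omega) hkU (nondeg_sub hU.1) hn (nondeg_sub hW)
  obtain ⟨f, hf⟩ := key
  exact FS.exists_isom hU.1 (W.subtype.comp f)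
    (fun x y => polar_of_eq (q := q.comp U.subtype) (q' := q.comp W.subtype) f hf x y) hf (fun x => (f x).2)

end

/-! ### The transfer -/

section

variable {ι : Type} [Fintype ι] [DecidableEq ι]

/-- The inclusion of the isometry group in the matrices. -/
def isoInc (F : Type u) [Field F] (Q : (ι → F) → F) : isometryGroup F Q →* Matrix ι ι F where
  toFun g := (g : Matrix.GeneralLinearGroup ι F).1
  map_one' := rfl
  map_mul' _ _ := rfl

/-- The isometry group as the group of the formed space. -/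
noncomputable def isoEquiv (q : QuadraticForm F (ι → F)) (hq : Nondeg q) :
    isometryGroup F (⇑q) ≃* (qFS q hq).G :=
  MulEquiv.ofBijective
    ((autHom (isoInc F (⇑q))).codRestrict (qFS q hq).G (fun g => by
      have h1 : ∀ x, q ((g : Matrix.GeneralLinearGroup ι F).1.mulVec x) = q x := fun x => g.2 x 0
      refine ⟨fun x y => ?_, h1⟩
      show polar (⇑q) ((g : Matrix.GeneralLinearGroup ι F).1.mulVec x)
        ((g : Matrix.GeneralLinearGroup ι F).1.mulVec y) = polar (⇑q) x y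
      rw [polar, polar, ← Matrix.mulVec_add, h1, h1, h1]))
    (by
      constructor
      · intro g k h
        apply Subtype.ext
        apply Units.ext
        have h1 : ∀ x, (g : Matrix.GeneralLinearGroup ι F).1.mulVec x = (k : Matrix.GeneralLinearGroup ι F).1.mulVec x :=
          fun x => congrArg (fun z : (qFS q hq).G => z.1 x) h
        apply Matrix.toLin'.injective
        exact LinearMap.ext h1
      · rintro ⟨T, hT⟩
        let g₀ : Matrix.GeneralLinearGroup ι F := Matrix.GeneralLinearGroup.toLin.symm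
          (LinearMap.GeneralLinearGroup.ofLinearEquiv T)
        have hg₀ : ∀ x, g₀.1.mulVec x = T x := by
          intro x
          exact LinearMap.toMatrix'_mulVec (T : (ι → F) →ₗ[F] (ι → F)) x
        refine ⟨⟨g₀, ?_⟩, ?_⟩
        · intro x _
          show q (g₀.1.mulVec x) = q x
          rw [hg₀]
          exact hT.2 x
        · apply Subtype.ext
          ext x : 1
          exact hg₀ x)

theorem not_dvd_index_of_sq {G : Type w} [Group G] [Finite G] (N : Subgroup G) [N.Normal]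
    (h : ∀ g : G, g * g ∈ N) {p : ℕ} (hp : p.Prime) (hp2 : p ≠ 2) : ¬ p ∣ N.index := by
  intro hd
  haveI : Fact p.Prime := ⟨hp⟩
  obtain ⟨x, hx⟩ := exists_prime_orderOf_dvd_card' (G := G ⧸ N) p hd
  obtain ⟨g, rfl⟩ := QuotientGroup.mk_surjective x
  have h1 : (g : G ⧸ N) ^ 2 = 1 := by
    rw [← QuotientGroup.mk_pow, QuotientGroup.eq_one_iff, pow_two]
    exact h g
  have h2 : orderOf (g : G ⧸ N) ∣ 2 := orderOf_dvd_of_pow_eq_one h1
  rw [hx] at h2
  exact hp2 ((Nat.prime_dvd_prime_iff_eq hp Nat.prime_two).1 h2)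

/-- **Nilpotent Hall subgroups of `PΩ(Q)`**, cross characteristic. -/
theorem orth_row (q : QuadraticForm F (ι → F)) (hq : Nondeg q) (h5 : 5 ≤ Fintype.card ι)
    (hs : ∃ x : ι → F, x ≠ 0 ∧ q x = 0) {π : Set ℕ}
    (hπ : ∀ p ∈ π, p.Prime ∧ p ≠ 2 ∧ p ∣ Nat.card (POmega F (⇑q))) (hF : ∀ p ∈ π, (p : F) ≠ 0) (hnt : π.Nontrivial)
    (hc : Cnd π (POmega F (⇑q))) :
    ∃ T : Subgroup (POmega F (⇑q)), IsMulCommutative T ∧ ∀ p ∈ π, ¬ p ∣ T.index := by
  haveI : Finite (isometryGroup F (⇑q)) := Finite.of_equiv _ (isoEquiv q hq).symm.toEquiv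
  have hcen : ∀ z ∈ Subgroup.center (Omega F (⇑q)), z * z = 1 := by
    intro z hz
    have h1 := (LieClassical.OmegaCenter.mem_center_omega_iff q (nondegenerate_of_nondeg hq) (by omega) hs z).1 hz
    apply LieClassical.OmegaCenter.omega_ext
    show LieClassical.OmegaCenter.omegaMat z * LieClassical.OmegaCenter.omegaMat z = 1
    rcases h1 with h1 | h1
    · rw [h1, one_mul]
    · rw [h1, neg_mul_neg, one_mul]
  refine transfer (Omega F (⇑q)) (fun p hp => ⟨(hπ p hp).1, (hπ p hp).2.2⟩)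
    (fun p hp => not_dvd_index_of_sq _ (fun g => mul_self_mem_Omega q hq h5 g) (hπ p hp).1 (hπ p hp).2.1)
    (fun p hp z hz k hk => eq_one_of_sq (hπ p hp).1 (hπ p hp).2.1 (hcen z hz) k hk) hc ?_
  intro hdv hcG
  refine pull (isoEquiv q hq) (FS.main (H := qFS q hq) (fun p hp => ⟨(hπ p hp).1, (hπ p hp).2.1, hF p hp⟩)
    (hcG.congr (isoEquiv q hq)) hnt ?_ ?_ ?_)
  · intro p hp
    rw [← Nat.card_congr (isoEquiv q hq).toEquiv]
    exact hdv p hp
  · intro s hs U W hU hW hlt
    exact orth_embed (hπ s hs).1 (hπ s hs).2.1 (hF s hs) hU hW hlt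
  · intro p hp U U' hU hU'
    exact orth_unique (hπ p hp).1 (hπ p hp).2.1 (hF p hp) hU hU'

/-- `PΩ_{2m+1}(q)` -/
theorem odd_row (F : Type u) [Field F] [Finite F] (h2 : (2 : F) ≠ 0) {m : ℕ} (hm : 2 ≤ m) {π : Set ℕ}
    (hπ : ∀ p ∈ π, p.Prime ∧ p ≠ 2 ∧ p ∣ Nat.card (POmega F (quadFormOdd m F))) (hF : ∀ p ∈ π, (p : F) ≠ 0)
    (hnt : π.Nontrivial) (hc : Cnd π (POmega F (quadFormOdd m F))) :
    ∃ T : Subgroup (POmega F (quadFormOdd m F)), IsMulCommutative T ∧ ∀ p ∈ π, ¬ p ∣ T.index := by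
  rw [← coe_oddForm] at *
  refine orth_row (oddForm m F) (nondeg_oddForm m F h2) (by simp; omega) ?_ hπ hF hnt hc
  refine ⟨Pi.single (Sum.inr (Sum.inl ⟨0, by omega⟩)) 1, ?_, ?_⟩
  · intro h
    have := congrFun h (Sum.inr (Sum.inl ⟨0, by omega⟩))
    rw [Pi.single_eq_same] at this
    exact one_ne_zero this
  · rw [coe_oddForm]
    simp [quadFormOdd, Pi.single_apply]

/-- `PΩ⁺_{2m}(q)` -/
theorem plus_row (F : Type u) [Field F] [Finite F] {m : ℕ} (hm : 3 ≤ m) {π : Set ℕ}
    (hπ : ∀ p ∈ π, p.Prime ∧ p ≠ 2 ∧ p ∣ Nat.card (POmega F (quadFormPlus m F))) (hF : ∀ p ∈ π, (p : F) ≠ 0)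
    (hnt : π.Nontrivial) (hc : Cnd π (POmega F (quadFormPlus m F))) :
    ∃ T : Subgroup (POmega F (quadFormPlus m F)), IsMulCommutative T ∧ ∀ p ∈ π, ¬ p ∣ T.index := by
  rw [← coe_plusForm] at *
  refine orth_row (plusForm m F) (nondeg_plusForm m F) (by simp; omega) ?_ hπ hF hnt hc
  refine ⟨Pi.single (Sum.inl ⟨0, by omega⟩) 1, ?_, ?_⟩
  · intro h
    have := congrFun h (Sum.inl ⟨0, by omega⟩)
    rw [Pi.single_eq_same] at this
    exact one_ne_zero this
  · rw [coe_plusForm]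
    simp [quadFormPlus, Pi.single_apply]

/-- `PΩ⁻_{2m+2}(q)` -/
theorem minus_row (F : Type u) [Field F] [Finite F] {m : ℕ} (hm : 2 ≤ m) {a b : F}
    (hab : ∀ z₁ z₂ : F, z₁ ^ 2 + a * z₁ * z₂ + b * z₂ ^ 2 = 0 → z₁ = 0 ∧ z₂ = 0) {π : Set ℕ}
    (hπ : ∀ p ∈ π, p.Prime ∧ p ≠ 2 ∧ p ∣ Nat.card (POmega F (quadFormMinus m F a b))) (hF : ∀ p ∈ π, (p : F) ≠ 0)
    (hnt : π.Nontrivial) (hc : Cnd π (POmega F (quadFormMinus m F a b))) :
    ∃ T : Subgroup (POmega F (quadFormMinus m F a b)), IsMulCommutative T ∧ ∀ p ∈ π, ¬ p ∣ T.index := by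
  rw [← coe_minusForm] at *
  refine orth_row (minusForm m F a b) (nondeg_minusForm m F a b hab) (by simp; omega) ?_ hπ hF hnt hc
  refine ⟨Pi.single (Sum.inl (Sum.inl ⟨0, by omega⟩)) 1, ?_, ?_⟩
  · intro h
    have := congrFun h (Sum.inl (Sum.inl ⟨0, by omega⟩))
    rw [Pi.single_eq_same] at this
    exact one_ne_zero this
  · rw [coe_minusForm]
    simp [quadFormMinus, Pi.single_apply]

end

end Cfsg.Agent.H119.NHF
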