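import Cfsg.Agent.H119.NHSp
import Cfsg.Agent.H377.ToOmega

/-!
# Quadratic spaces: existence and uniqueness of atoms (helper119)
-/

set_option autoImplicit false
set_option linter.unusedSectionVars false
set_option linter.style.haveILetI false

namespace Cfsg.Agent.H119.NHF

open Module QuadraticMap
open LinearMap (BilinForm)
open Cfsg.Agent.LieClassical.OrthCore Cfsg.Agent.LieClassical.OrthForms
open Cfsg.Agent.H403.Classify Cfsg.Agent.H377

universe u v w

section Count

variable {F : Type u} [Field F] [Finite F]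

/-- The number of vectors with a given nonzero value. -/
theorem count_formula {W : Type v} [Fintype W] [DecidableEq F] {Q : W → F} {n : ℕ} {ε : ℤ}
    (hcard : Fintype.card W = Nat.card F ^ (2 * n)) (h : HasSign Q n ε) {c : F} (hc : c ≠ 0) :
    (Nat.card F : ℤ) * Fintype.card {v : W // Q v = c} = (Nat.card F : ℤ) ^ (2 * n) - ε * (Nat.card F : ℤ) ^ n := by
  classical
  haveI : Fintype F := Fintype.ofFinite F
  have key : ((Nat.card F : ℂ)) * Fintype.card {v : W // Q v = c}
      = (Nat.card F : ℂ) ^ (2 * n) - ε * (Nat.card F : ℂ) ^ n := by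
    have h1 : ∑ ψ : AddChar F ℂ, ψ (-c) * gs ψ Q = (Nat.card F : ℂ) * Fintype.card {v : W // Q v = c} := by
      simp only [gs_eq, Finset.mul_sum, ← AddChar.map_add_eq_mul]
      rw [Finset.sum_comm]
      simp only [AddChar.sum_apply_eq_ite]
      rw [Fintype.card_subtype, Finset.card_filter, Nat.card_eq_fintype_card]
      push_cast
      rw [Finset.mul_sum]
      apply Finset.sum_congr rfl
      intro v _
      by_cases hv : Q v = c
      · rw [if_pos (by rw [hv, neg_add_cancel]), if_pos hv, mul_one]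
      · rw [if_neg (fun h => hv (by rw [neg_add_eq_zero] at h; exact h.symm)), if_neg hv, mul_zero]
    rw [← h1, ← Finset.add_sum_erase _ _ (Finset.mem_univ (1 : AddChar F ℂ))]
    have h2 : ∑ ψ ∈ Finset.univ.erase (1 : AddChar F ℂ), ψ (-c) * gs ψ Q
        = ∑ ψ ∈ Finset.univ.erase (1 : AddChar F ℂ), ψ (-c) * (ε * (Nat.card F : ℂ) ^ n) := by
      apply Finset.sum_congr rfl
      intro ψ hψ
      rw [h ψ (Finset.ne_of_mem_erase hψ)]
    rw [h2, ← Finset.sum_mul]
    have h3 : ∑ ψ ∈ Finset.univ.erase (1 : AddChar F ℂ), ψ (-c) = -1 := by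
      have h4 : ∑ ψ : AddChar F ℂ, ψ (-c) = 0 := by
        rw [AddChar.sum_apply_eq_ite, if_neg (neg_ne_zero.2 hc)]
      rw [← Finset.add_sum_erase _ _ (Finset.mem_univ (1 : AddChar F ℂ)), AddChar.one_apply] at h4
      linear_combination h4
    have h5 : gs (1 : AddChar F ℂ) Q = (Nat.card F : ℂ) ^ (2 * n) := by
      rw [gs_eq]
      simp only [AddChar.one_apply]
      rw [Finset.sum_const, Finset.card_univ, hcard]
      simp
    rw [h3, h5, AddChar.one_apply]
    ring
  exact_mod_cast key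

end Count

variable {F : Type u} [Field F] [Finite F] {V : Type v} [AddCommGroup V] [Module F V]

/-- The formed space of a nondegenerate quadratic form. -/
def qFS (q : QuadraticForm F V) (hq : Nondeg q) : FS F V where
  B := polarBilin q
  Q := q
  refl x y h := by
    rw [polarBilin_apply_apply, polar_comm] at h
    rw [polarBilin_apply_apply]
    exact h
  nd := nondegenerate_of_nondeg hq
  qadd x y h := by
    have h1 : polar (⇑q) x y = 0 := h
    rw [polar] at h1
    linear_combination h1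

theorem qFS_B (q : QuadraticForm F V) (hq : Nondeg q) (x y : V) : (qFS q hq).B x y = polar (⇑q) x y := rfl

theorem qFS_symm (q : QuadraticForm F V) (hq : Nondeg q) (x y : V) : (qFS q hq).B x y = (qFS q hq).B y x := by
  rw [qFS_B, qFS_B, polar_comm]

/-- `W` carries a nondegenerate quadratic form. -/
theorem nondeg_sub {q : QuadraticForm F V} {hq : Nondeg q} {W : Submodule F V} (hW : (qFS q hq).Nd W) :
    Nondeg (q.comp W.subtype) := by
  intro x hx
  apply Subtype.ext
  refine (Submodule.disjoint_def.1 hW) _ x.2 ?_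
  rw [FS.mem_perp']
  intro y hy
  exact hx ⟨y, hy⟩

variable [FiniteDimensional F V]

/-- Dimension of an atom is even. -/
theorem even_of_fpf {H : FS F V} (hs : ∀ x y, H.B x y = H.B y x) {W : Submodule F V} (hW : H.Nd W) {y : H.G}
    (hy : y ∈ H.St W) (h2 : ∀ x ∈ W, y.1 (y.1 x) = x → x = 0) : ∃ m, finrank F W = 2 * m := by
  have hyW : ∀ x ∈ W, y.1 x ∈ W := fun x hx => FS.St.mem H hy hx
  let C : BilinForm F W := LinearMap.mk₂ F (fun a b => H.B (y.1 a) b - H.B a (y.1 b))
    (fun a a' b => by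
      simp only [Submodule.coe_add, map_add, LinearMap.add_apply]
      ring)
    (fun c a b => by
      simp only [Submodule.coe_smul, map_smul, LinearMap.smul_apply, smul_eq_mul]
      ring)
    (fun a b b' => by
      simp only [Submodule.coe_add, map_add]
      ring)
    (fun c a b => by
      simp only [Submodule.coe_smul, map_smul, smul_eq_mul]
      ring)
  have hC : ∀ a b : W, C a b = H.B (y.1 a) b - H.B a (y.1 b) := fun a b => rfl
  have hA : C.IsAlt := fun a => by
    show C a a = 0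
    rw [hC, hs, sub_self]
  obtain ⟨m, k, b, -, -, -, h4⟩ := S0752.result C hA
  have hk : k = 0 := by
    by_contra hk
    have h5 := h4 ⟨0, Nat.pos_of_ne_zero hk⟩
    set u := b (Sum.inr ⟨0, Nat.pos_of_ne_zero hk⟩) with hu
    apply b.ne_zero (Sum.inr ⟨0, Nat.pos_of_ne_zero hk⟩)
    -- `u = y u'`
    have hmap : W.map (y.1 : V →ₗ[F] V) = W := hy
    have huW : (u : V) ∈ W.map (y.1 : V →ₗ[F] V) := by
      rw [hmap]
      exact u.2
    obtain ⟨u', hu'W, hu'⟩ := huW
    have hu'2 : y.1 u' = u := hu'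
    have h6 : y.1 (y.1 u') - u' ∈ H.perp W := by
      rw [FS.mem_perp']
      intro z hz
      have h7 : C u ⟨z, hz⟩ = 0 := h5 ⟨z, hz⟩
      rw [hC] at h7
      rw [map_sub, LinearMap.sub_apply, hu'2]
      have h8 : H.B u (y.1 z) = H.B u' z := by rw [← hu'2, H.B_map]
      rw [← h8]
      exact h7
    have h9 : y.1 (y.1 u') - u' = 0 :=
      (Submodule.disjoint_def.1 hW) _ (W.sub_mem (hyW _ (hyW _ hu'W)) hu'W) h6
    have h10 := h2 u' hu'W (sub_eq_zero.1 h9)
    apply Subtype.ext
    rw [← hu, ← hu'2, h10, map_zero]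
    rfl
  subst hk
  refine ⟨m, ?_⟩
  rw [finrank_eq_card_basis b]
  simp
  omega

/-- Existence of the sign. -/
theorem exists_sign {W : Type w} [AddCommGroup W] [Module F W] [Finite W] {m : ℕ} (hm : 1 ≤ m)
    (hW : finrank F W = 2 * m) (q : QuadraticForm F W) (hq : Nondeg q) :
    ∃ ε : ℤ, (ε = 1 ∨ ε = -1) ∧ HasSign (⇑q) m ε := by
  haveI : FiniteDimensional F W := Module.Finite.of_finite
  rcases classify_all hm hW q hq with ⟨e, he⟩ | ⟨ζ, hζ, e, he⟩
  · exact ⟨1, Or.inl rfl, (hasSign_quadFormPlus m).congr e.toEquiv he⟩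
  · refine ⟨-1, Or.inr rfl, ?_⟩
    have h := (hasSign_quadFormMinus (m - 1) hζ).congr e.toEquiv he
    rwa [Nat.sub_add_cancel hm] at h

/-- Spaces of the same sign are isometric. -/
theorem iso_of_sign {W : Type w} [AddCommGroup W] [Module F W] [Finite W] {W' : Type v} [AddCommGroup W']
    [Module F W'] [Finite W'] {m : ℕ} (hm : 1 ≤ m) (hW : finrank F W = 2 * m) (hW' : finrank F W' = 2 * m)
    {q : QuadraticForm F W} (hq : Nondeg q) {q' : QuadraticForm F W'} (hq' : Nondeg q') {ε : ℤ}
    (hε : ε = 1 ∨ ε = -1) (h : HasSign (⇑q) m ε) (h' : HasSign (⇑q') m ε) :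
    ∃ e : W ≃ₗ[F] W', ∀ x, q' (e x) = q x := by
  rcases hε with rfl | rfl
  · obtain ⟨e, he⟩ := exists_plus hm hW q hq h
    obtain ⟨e', he'⟩ := exists_plus hm hW' q' hq' h'
    refine ⟨e.symm.trans e', fun x => ?_⟩
    rw [LinearEquiv.trans_apply, he', ← he, e.apply_symm_apply]
  · obtain ⟨a, b, hab⟩ := exists_aniso F
    obtain ⟨e, he⟩ := exists_minus hm hW q hq h hab
    obtain ⟨e', he'⟩ := exists_minus hm hW' q' hq' h' hab
    refine ⟨e.symm.trans e', fun x => ?_⟩
    rw [LinearEquiv.trans_apply, he', ← he, e.apply_symm_apply]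

theorem polar_of_eq {W : Type w} [AddCommGroup W] [Module F W] {W' : Type v} [AddCommGroup W']
    [Module F W'] {q : QuadraticForm F W} {q' : QuadraticForm F W'} (f : W →ₗ[F] W') (h : ∀ x, q' (f x) = q x)
    (x y : W) : polar (⇑q') (f x) (f y) = polar (⇑q) x y := by
  rw [polar, polar, ← map_add, h, h, h]

variable [Finite V]

theorem card_sub (W : Submodule F V) [Fintype W] : Fintype.card W = Nat.card F ^ finrank F W := by
  rw [← Nat.card_eq_fintype_card]
  exact Module.natCard_eq_pow_finrank (K := F) (V := W)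

/-- The congruence satisfied by the sign of an atom. -/
theorem sign_cong {q : QuadraticForm F V} {hq : Nondeg q} {p : ℕ} (hp : p.Prime) (hF : (p : F) ≠ 0)
    {W : Submodule F V} {y : (qFS q hq).G} (hy : y ∈ (qFS q hq).St W) (hyp : y ^ p = 1)
    (hfix : ∀ x ∈ W, y.1 x = x → x = 0) {m : ℕ} (hm : finrank F W = 2 * m) {ε : ℤ}
    (h : HasSign (⇑(q.comp W.subtype)) m ε) : (p : ℤ) ∣ (Nat.card F : ℤ) ^ m - ε := by
  classical
  haveI : Fintype W := Fintype.ofFinite W
  haveI : Fact p.Prime := ⟨hp⟩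
  have h1 := count_formula (Q := ⇑(q.comp W.subtype)) (by rw [card_sub W, hm]) h (c := 1) one_ne_zero
  -- `p` divides the number of vectors of value `1`
  let X := {v : W // (q.comp W.subtype) v = 1}
  have hyW : ∀ x ∈ W, y.1 x ∈ W := fun x hx => FS.St.mem _ hy hx
  let f : Function.End X := fun v => ⟨⟨y.1 v.1, hyW _ v.1.2⟩, by
    have h2 : q (y.1 (v.1 : V)) = q (v.1 : V) := y.2.2 _
    show q (y.1 (v.1 : V)) = 1
    rw [h2]
    exact v.2⟩
  have hfn : ∀ (n : ℕ) (v : X), (((f ^ n) v : X).1 : V) = (y ^ n).1 (v.1 : V) := by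
    intro n
    induction n with
    | zero => intro v; rfl
    | succ n ih =>
      intro v
      rw [pow_succ, pow_succ]
      show (((f ^ n) (f v) : X).1 : V) = (y ^ n).1 (y.1 (v.1 : V))
      rw [ih]
  have hf1 : f ^ p ^ 1 = 1 := by
    funext v
    apply Subtype.ext
    apply Subtype.ext
    rw [hfn, pow_one, hyp]
    rfl
  have h2 := Equiv.Perm.card_fixedPoints_modEq hf1
  have h3 : Fintype.card f.fixedPoints = 0 := by
    rw [Fintype.card_eq_zero_iff]
    constructor
    rintro ⟨v, hv⟩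
    have h4 : f v = v := hv
    have h5 : y.1 (v.1 : V) = v.1 := congrArg (fun z : X => (z.1 : V)) h4
    have h6 := hfix _ v.1.2 h5
    have h7 : q (v.1 : V) = 1 := v.2
    rw [h6, QuadraticMap.map_zero] at h7
    exact zero_ne_one h7
  rw [h3] at h2
  have h4 : (p : ℤ) ∣ (Fintype.card X : ℤ) := by
    exact_mod_cast (Nat.modEq_zero_iff_dvd.1 h2)
  have h5 : (p : ℤ) ∣ (Nat.card F : ℤ) ^ m * ((Nat.card F : ℤ) ^ m - ε) := by
    have h6 : (Nat.card F : ℤ) ^ m * ((Nat.card F : ℤ) ^ m - ε)
        = (Nat.card F : ℤ) * (Fintype.card X : ℤ) := by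
      rw [h1, two_mul, pow_add]
      ring
    rw [h6]
    exact Dvd.dvd.mul_left h4 _
  have hpF : ¬ (p : ℤ) ∣ (Nat.card F : ℤ) ^ m := by
    intro h7
    have h8 := (Nat.prime_iff_prime_int.1 hp).dvd_of_dvd_pow h7
    have h9 : p ∣ Nat.card F := by exact_mod_cast h8
    apply hF
    haveI : Fintype F := Fintype.ofFinite F
    rw [Nat.card_eq_fintype_card] at h9
    obtain ⟨r, hr⟩ := CharP.exists F
    obtain ⟨⟨n, hn⟩, hr2, hcard⟩ := FiniteField.card F r
    rw [hcard] at h9
    have h10 := (Nat.prime_dvd_prime_iff_eq hp hr2).1 (hp.dvd_of_dvd_pow h9)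
    rw [h10]
    exact CharP.cast_eq_zero F r
  exact ((Nat.prime_iff_prime_int.1 hp).dvd_mul.1 h5).resolve_left hpF

end Cfsg.Agent.H119.NHF
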