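import Cfsg.Agent.H119.NHTrans
import Cfsg.Agent.S0752
import Cfsg.Agent.S0765
import Cfsg.Agent.LieClassical.SympCenter

/-!
# Nilpotent Hall subgroups of the symplectic groups, cross characteristic (helper119)
-/

set_option autoImplicit false
set_option linter.unusedSectionVars false

namespace Cfsg.Agent.H119.NHF

open Module
open LinearMap (BilinForm)

universe u v w

variable {F : Type u} {V : Type v} [Field F] [AddCommGroup V] [Module F V]

namespace FS

/-- An isometric embedding gives a copy. -/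
theorem exists_isom {H : FS F V} {U W : Submodule F V} (hU : H.Nd U) (f : U →ₗ[F] V)
    (hB : ∀ x y : U, H.B (f x) (f y) = H.B x y) (hQ : ∀ x : U, H.Q (f x) = H.Q x) (hW : ∀ x, f x ∈ W) :
    ∃ U' ≤ W, H.Nd U' ∧ Nonempty (H.Isom U U') := by
  have hker : ∀ x : U, (∀ y : U, H.B (f x) (f y) = 0) → x = 0 := by
    intro x hx
    apply Subtype.ext
    refine (Submodule.disjoint_def.1 hU) _ x.2 ?_
    rw [mem_perp']
    intro y hy
    rw [← hB x ⟨y, hy⟩]
    exact hx _
  have hinj : Function.Injective f := by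
    rw [← LinearMap.ker_eq_bot, LinearMap.ker_eq_bot']
    intro x hx
    apply hker
    intro y
    rw [hx, map_zero, LinearMap.zero_apply]
  refine ⟨LinearMap.range f, ?_, ?_, ⟨⟨LinearEquiv.ofInjective f hinj, hB, hQ⟩⟩⟩
  · rintro _ ⟨x, rfl⟩
    exact hW x
  · unfold Nd
    rw [Submodule.disjoint_def]
    rintro _ ⟨x, rfl⟩ hp
    rw [hker x fun y => H.mem_perp'.1 hp _ ⟨y, rfl⟩, map_zero]

variable [FiniteDimensional F V]

/-- Symplectic basis of a nondegenerate subspace. -/
theorem exists_basis {H : FS F V} (hA : H.B.IsAlt) {W : Submodule F V} (hW : H.Nd W) :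
    ∃ (m : ℕ) (b : Basis (Fin m ⊕ Fin m) F W), finrank F W = 2 * m ∧
      (∀ i j : Fin m, H.B (b (Sum.inl i)) (b (Sum.inr j)) = if i = j then 1 else 0) ∧
      (∀ i j : Fin m, H.B (b (Sum.inl i)) (b (Sum.inl j)) = 0) ∧
      (∀ i j : Fin m, H.B (b (Sum.inr i)) (b (Sum.inr j)) = 0) := by
  have hA' : (H.B.restrict W).IsAlt := fun x => hA x
  obtain ⟨m, k, b, h1, h2, h3, h4⟩ := S0752.result (H.B.restrict W) hA'
  have hk : k = 0 := by
    by_contra hk
    have h5 := h4 ⟨0, Nat.pos_of_ne_zero hk⟩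
    apply b.ne_zero (Sum.inr ⟨0, Nat.pos_of_ne_zero hk⟩)
    apply Subtype.ext
    refine (Submodule.disjoint_def.1 hW) _ (b _).2 ?_
    rw [mem_perp']
    intro y hy
    exact h5 ⟨y, hy⟩
  subst hk
  refine ⟨m, b.reindex (Equiv.sumEmpty _ _), ?_, ?_, ?_, ?_⟩
  · rw [finrank_eq_card_basis b]
    simp
    omega
  · intro i j
    rw [Basis.reindex_apply, Basis.reindex_apply]
    exact h1 i j
  · intro i j
    rw [Basis.reindex_apply, Basis.reindex_apply]
    exact h2 i j
  · intro i j
    rw [Basis.reindex_apply, Basis.reindex_apply]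
    exact h3 i j

theorem sp_embed {H : FS F V} (hQ : ∀ x, H.Q x = 0) (hA : H.B.IsAlt) {U W : Submodule F V} (hU : H.Nd U)
    (hW : H.Nd W) (hle : finrank F U ≤ finrank F W) : ∃ U' ≤ W, H.Nd U' ∧ Nonempty (H.Isom U U') := by
  obtain ⟨k, b, hk, h1, h2, h3⟩ := exists_basis hA hU
  obtain ⟨m, c, hm, g1, g2, g3⟩ := exists_basis hA hW
  have hkm : k ≤ m := by omega
  let f : U →ₗ[F] W := b.constr F (Sum.elim (fun i => c (Sum.inl (Fin.castLE hkm i)))
    (fun i => c (Sum.inr (Fin.castLE hkm i))))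
  have f1 : ∀ i, f (b (Sum.inl i)) = c (Sum.inl (Fin.castLE hkm i)) := fun i => by
    simp only [f, Basis.constr_basis, Sum.elim_inl]
  have f2 : ∀ i, f (b (Sum.inr i)) = c (Sum.inr (Fin.castLE hkm i)) := fun i => by
    simp only [f, Basis.constr_basis, Sum.elim_inr]
  have hBB : (H.B.restrict W).comp f f = H.B.restrict U := by
    apply LinearMap.BilinForm.ext_basis b
    intro i j
    rw [LinearMap.BilinForm.comp_apply]
    show H.B (f (b i) : V) (f (b j) : V) = H.B (b i : V) (b j : V)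
    rcases i with i | i <;> rcases j with j | j
    · rw [f1, f1, g2, h2]
    · rw [f1, f2, g1, h1]
      simp [Fin.castLE_inj]
    · rw [f1, f2, ← hA.neg_eq, ← hA.neg_eq (b (Sum.inl j) : V), g1, h1]
      simp [Fin.castLE_inj]
    · rw [f2, f2, g3, h3]
  refine exists_isom hU (W.subtype.comp f) ?_ ?_ (fun x => (f x).2)
  · intro x y
    exact congrArg (fun D : BilinForm F U => D x y) hBB
  · intro x
    rw [hQ, hQ]

end FS

/-! ### The standard symplectic space -/

open Cfsg.Agent.S0765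

/-- The standard symplectic space. -/
def spB (m : ℕ) (F : Type u) [Field F] : BilinForm F (Fin m ⊕ Fin m → F) :=
  LinearMap.mk₂ F (sympForm m F) form_add_left form_smul_left form_add_right form_smul_right

theorem spB_apply (m : ℕ) (F : Type u) [Field F] (x y : Fin m ⊕ Fin m → F) : spB m F x y = sympForm m F x y := rfl

theorem spB_alt (m : ℕ) (F : Type u) [Field F] : (spB m F).IsAlt := fun x => form_self x

/-- The standard symplectic formed space. -/
def spFS (m : ℕ) (F : Type u) [Field F] : FS F (Fin m ⊕ Fin m → F) where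
  B := spB m F
  Q := 0
  refl := (spB_alt m F).isRefl
  nd := by
    have h1 : ∀ x, (∀ y, spB m F x y = 0) → x = 0 := by
      intro x hx
      by_contra hx0
      obtain ⟨y, hy⟩ := form_nondeg x hx0
      apply hy
      rw [form_swap, ← spB_apply, hx, neg_zero]
    refine ⟨h1, ?_⟩
    intro x hx
    refine h1 x fun y => ?_
    rw [spB_apply, form_swap, ← spB_apply, hx, neg_zero]
  qadd x y _ := by simp

/-- Matrices to linear automorphisms. -/
noncomputable def autHom {G : Type w} [Group G] {ι : Type} [Fintype ι] [DecidableEq ι] {F : Type u} [Field F]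
    (f : G →* Matrix ι ι F) : G →* ((ι → F) ≃ₗ[F] (ι → F)) :=
  (LinearMap.GeneralLinearGroup.generalLinearEquiv F (ι → F)).toMonoidHom.comp
    (((Matrix.toLinAlgEquiv' : Matrix ι ι F ≃ₐ[F] Module.End F (ι → F)).toAlgHom.toRingHom.toMonoidHom.comp f).toHomUnits)

theorem autHom_apply {G : Type w} [Group G] {ι : Type} [Fintype ι] [DecidableEq ι] {F : Type u} [Field F]
    (f : G →* Matrix ι ι F) (g : G) (x : ι → F) : autHom f g x = (f g).mulVec x := rfl

theorem mem_center_sq {m : ℕ} {F : Type u} [Field F] (z : Matrix.symplecticGroup (Fin m) F)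
    (hz : z ∈ Subgroup.center (Matrix.symplecticGroup (Fin m) F)) : z * z = 1 := by
  obtain ⟨a, ha⟩ := (LieClassical.SympCenter.mem_center_iff m z).1 hz
  apply Subtype.ext
  show z.1 * z.1 = 1
  rcases Nat.eq_zero_or_pos m with h0 | hpos
  · subst h0
    ext i j
    rcases i with i | i <;> exact Fin.elim0 i
  · have h1 := LieClassical.SympCenter.sq_eq_one_of_smul_mem (Nat.succ_le_of_lt hpos) (ha ▸ z.2)
    rw [ha]
    simp [smul_smul, h1]

theorem eq_one_of_sq {G : Type w} [Group G] {p : ℕ} (hp : p.Prime) (hp2 : p ≠ 2) {z : G} (h2 : z * z = 1) (k : ℕ)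
    (hk : z ^ p ^ k = 1) : z = 1 := by
  have h1 : orderOf z ∣ 2 := orderOf_dvd_of_pow_eq_one (by rw [pow_two, h2])
  have h3 : orderOf z ∣ p ^ k := orderOf_dvd_of_pow_eq_one hk
  have h4 : Nat.Coprime (p ^ k) 2 := Nat.Coprime.pow_left k ((Nat.coprime_primes hp Nat.prime_two).2 hp2)
  have h5 := Nat.dvd_gcd h3 h1
  rw [h4.gcd_eq_one] at h5
  exact orderOf_eq_one_iff.1 (Nat.dvd_one.1 h5)

/-- Pulling back along an isomorphism. -/
theorem pull {X : Type u} {Y : Type v} [Group X] [Group Y] (e : X ≃* Y) {π : Set ℕ}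
    (h : ∃ T : Subgroup Y, (∀ a ∈ T, ∀ b ∈ T, a * b = b * a) ∧ ∀ t ∈ π, ¬ t ∣ T.index) :
    ∃ T : Subgroup X, (∀ a ∈ T, ∀ b ∈ T, a * b = b * a) ∧ ∀ t ∈ π, ¬ t ∣ T.index := by
  obtain ⟨T, h1, h2⟩ := h
  refine ⟨T.comap (e : X →* Y), ?_, ?_⟩
  · intro a ha b hb
    apply e.injective
    rw [map_mul, map_mul]
    exact h1 _ ha _ hb
  · intro t ht
    rw [Subgroup.index_comap_of_surjective _ e.surjective]
    exact h2 t ht

/-- The inclusion of the symplectic group in the matrices. -/
def spInc (m : ℕ) (F : Type u) [Field F] :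
    Matrix.symplecticGroup (Fin m) F →* Matrix (Fin m ⊕ Fin m) (Fin m ⊕ Fin m) F where
  toFun g := g.1
  map_one' := rfl
  map_mul' _ _ := rfl

/-- The symplectic group as a group of isometries. -/
noncomputable def spEquiv (m : ℕ) (F : Type u) [Field F] : Matrix.symplecticGroup (Fin m) F ≃* (spFS m F).G :=
  MulEquiv.ofBijective
    ((autHom (spInc m F)).codRestrict (spFS m F).G (fun g => ⟨fun x y => form_mulVec g.1 g.2 x y, fun _ => rfl⟩))
    (by
      constructor
      · intro g k h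
        apply Subtype.ext
        have h1 : ∀ x, g.1.mulVec x = k.1.mulVec x := fun x =>
          congrArg (fun z : (spFS m F).G => z.1 x) h
        apply Matrix.toLin'.injective
        exact LinearMap.ext h1
      · rintro ⟨T, hT⟩
        have h1 : LinearMap.toMatrix' (T : (Fin m ⊕ Fin m → F) →ₗ[F] (Fin m ⊕ Fin m → F)) ∈
            Matrix.symplecticGroup (Fin m) F := by
          rw [SymplecticGroup.mem_iff']
          ext i j
          have h3 : sympForm m F (T (Pi.single i 1)) (T (Pi.single j 1))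
            = sympForm m F (Pi.single i 1) (Pi.single j 1) := hT.1 _ _
          have h4 : ∀ x, T x = (LinearMap.toMatrix' (T : (Fin m ⊕ Fin m → F) →ₗ[F] (Fin m ⊕ Fin m → F))).mulVec x :=
            fun x => (LinearMap.toMatrix'_mulVec (T : (Fin m ⊕ Fin m → F) →ₗ[F] (Fin m ⊕ Fin m → F)) x).symm
          rw [h4 (Pi.single i 1), h4 (Pi.single j 1), form_def, form_def, Matrix.mulVec_mulVec,
            ← Matrix.vecMul_transpose, ← Matrix.dotProduct_mulVec, Matrix.mulVec_mulVec, ← Matrix.mul_assoc] at h3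
          simpa using h3
        refine ⟨⟨_, h1⟩, ?_⟩
        apply Subtype.ext
        ext x : 1
        exact LinearMap.toMatrix'_mulVec (T : (Fin m ⊕ Fin m → F) →ₗ[F] (Fin m ⊕ Fin m → F)) x)

/-- **Nilpotent Hall subgroups of `PSp_{2m}(q)`**, cross characteristic. -/
theorem sp_row (m : ℕ) (F : Type u) [Field F] [Finite F] {π : Set ℕ}
    (hπ : ∀ p ∈ π, p.Prime ∧ p ≠ 2 ∧ p ∣ Nat.card (PSp m F)) (hF : ∀ p ∈ π, (p : F) ≠ 0) (hnt : π.Nontrivial)
    (hc : Cnd π (PSp m F)) :
    ∃ T : Subgroup (PSp m F), IsMulCommutative T ∧ ∀ p ∈ π, ¬ p ∣ T.index := by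
  have hfin : Finite (Matrix.symplecticGroup (Fin m) F) := by
    have := Finite.of_equiv _ (spEquiv m F).symm.toEquiv
    exact this
  refine transfer' (fun p hp => ⟨(hπ p hp).1, (hπ p hp).2.2⟩)
    (fun p hp z hz k hk => eq_one_of_sq (hπ p hp).1 (hπ p hp).2.1 (mem_center_sq z hz) k hk) hc ?_
  intro hdv hcG
  refine pull (spEquiv m F) (FS.main (H := spFS m F) (fun p hp => ⟨(hπ p hp).1, (hπ p hp).2.1, hF p hp⟩)
    (hcG.congr (spEquiv m F)) hnt ?_ ?_ ?_)
  · intro p hp
    rw [← Nat.card_congr (spEquiv m F).toEquiv]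
    exact hdv p hp
  · intro s _ U W hU hW hlt
    exact FS.sp_embed (fun _ => rfl) (spB_alt m F) hU.1 hW hlt.le
  · intro p _ U U' hU hU'
    have h1 := hU.finrank_eq hU'
    obtain ⟨W, hW, -, ⟨φ⟩⟩ := FS.sp_embed (fun _ => rfl) (spB_alt m F) hU.1 hU'.1 h1.le
    have h2 := LinearEquiv.finrank_eq φ.e
    have h3 : W = U' := Submodule.eq_of_le_of_finrank_eq hW (by rw [← h2, h1])
    subst h3
    exact ⟨φ⟩

end Cfsg.Agent.H119.NHF
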